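import Cfsg.Agent.H833.SixEnd
import Cfsg.Agent.H833.AutFinal
import Cfsg.Agent.H836.EightMain
import Cfsg.Agent.H830.OutInv22

/-!
# Outer involutions of `Fi22`: assembly of S5472 (helper833)
-/

set_option autoImplicit false

namespace Cfsg.Agent.H833.Assemble

open Cfsg Subgroup Cfsg.Agent.KFacts.FiTT
open Cfsg.Agent.Fischer.Fi22PtsRep (gen)
open Cfsg.Agent.H836.EightPts (Cs mem_Cs)
open Cfsg.Agent.H833.SixPts (Ct mem_Ct tt V6 q6)
open Cfsg.Agent.H833.Flip
open Cfsg.Agent.LieClassical.ReflGen (orth)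

universe v

variable {G : Type v} [Group G]

/-- the fixed points of an automorphism -/
def Fixp (α : MulAut G) : Subgroup G where
  carrier := {g | α g = g}
  mul_mem' := by
    intro a b ha hb
    show α (a * b) = a * b
    rw [map_mul, ha, hb]
  one_mem' := map_one _
  inv_mem' := by
    intro a ha
    show α a⁻¹ = a⁻¹
    rw [map_inv, ha]

theorem mem_Fixp {α : MulAut G} {g : G} : g ∈ Fixp α ↔ α g = g := Iff.rfl

/-- conjugate automorphisms have the same number of fixed points -/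
theorem card_eq_of_isConj {α β : MulAut G} (h : IsConj α β) : Nat.card (Fixp α) = Nat.card (Fixp β) := by
  obtain ⟨γ, hγ⟩ := isConj_iff.1 h
  have key : ∀ g, β (γ g) = γ (α g) := by
    intro g
    have h1 : β * γ = γ * α := by rw [← hγ]; group
    exact congrArg (fun δ : MulAut G => δ g) h1
  refine Nat.card_congr
    { toFun := fun g => ⟨γ g, ?_⟩
      invFun := fun g => ⟨γ⁻¹ g, ?_⟩
      left_inv := fun g => Subtype.ext (γ.symm_apply_apply _)
      right_inv := fun g => Subtype.ext (γ.apply_symm_apply _) }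
  · rw [mem_Fixp, key, mem_Fixp.1 g.2]
  · rw [mem_Fixp]
    apply γ.injective
    rw [← key]
    have : γ (γ⁻¹ (g : G)) = g := γ.apply_symm_apply _
    rw [this]
    exact mem_Fixp.1 g.2

section

variable (e : G ≃* Spor.Fi22)

/-- transport of automorphisms -/
abbrev c : MulAut Spor.Fi22 ≃* MulAut G := MulAut.congr e.symm

theorem c_apply (α : MulAut Spor.Fi22) (g : G) : c e α g = e.symm (α (e g)) := rfl

theorem c_conj (k : Spor.Fi22) : c e (MulAut.conj k) = MulAut.conj (e.symm k) := by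
  ext g
  rw [c_apply, MulAut.conj_apply, MulAut.conj_apply, map_mul, map_mul, map_inv, e.symm_apply_apply]

theorem c_fix (α : MulAut Spor.Fi22) (g : G) : c e α g = g ↔ α (e g) = e g := by
  rw [c_apply, MulEquiv.symm_apply_eq]

theorem c_inner {α : MulAut Spor.Fi22} (h : c e α ∈ (MulAut.conj : G →* MulAut G).range) :
    α ∈ (MulAut.conj : Spor.Fi22 →* MulAut Spor.Fi22).range := by
  obtain ⟨g, hg⟩ := h
  refine ⟨e g, (c e).injective ?_⟩
  rw [c_conj, e.symm_apply_apply, hg]

theorem c_inner' {α : MulAut Spor.Fi22} (h : α ∈ (MulAut.conj : Spor.Fi22 →* MulAut Spor.Fi22).range) :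
    c e α ∈ (MulAut.conj : G →* MulAut G).range := by
  obtain ⟨g, rfl⟩ := h
  exact ⟨e.symm g, (c_conj e g).symm⟩

theorem card_Fixp (α : MulAut Spor.Fi22) : Nat.card (Fixp (c e α)) = Nat.card (Fixp α) :=
  Nat.card_congr
    { toFun := fun g => ⟨e g, (c_fix e α g).1 g.2⟩
      invFun := fun g => ⟨e.symm g, (c_fix e α _).2 (by rw [e.apply_symm_apply]; exact g.2)⟩
      left_inv := fun g => Subtype.ext (e.symm_apply_apply _)
      right_inv := fun g => Subtype.ext (e.apply_symm_apply _) }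

end

/-- **The statement**, with the facts on the centralizer of `d`. -/
theorem main_of (D1 : ∀ g : Spor.Fi22, (flipA * MulAut.conj (gen .d)) g = g ↔
      g ∈ Cs ⊓ centralizer ({gen .d} : Set Spor.Fi22))
    (D2 : Nonempty (↥(Cs ⊓ centralizer ({gen .d} : Set Spor.Fi22)) ≃* Multiplicative (ZMod 2) × PSp 3 (ZMod 2)))
    (hcard : Nat.card (PSp 3 (ZMod 2)) = 1451520)
    (e : G ≃* Spor.Fi22) :
    ∃ (s : MulAut G) (a b : G) (Cs : Subgroup G), orderOf s = 2 ∧ s ∉ (MulAut.conj : G →* MulAut G).range ∧ (∀ g : G, g ∈ Cs ↔ s g = g) ∧ Nonempty (↥Cs ≃* MulAut (Cfsg.Omega (ZMod 2) (Cfsg.quadFormPlus 4 (ZMod 2)))) ∧ a ∈ TK e ∧ b ∈ TK e ∧ a ≠ b ∧ Commute a b ∧ s a = a ∧ s b = b ∧ (∀ t : MulAut G, orderOf t = 2 → t ∉ (MulAut.conj : G →* MulAut G).range → (IsConj t s ∨ IsConj t (s * MulAut.conj a) ∨ IsConj t (s * MulAut.conj (a * b)))) ∧ ¬ IsConj s (s * MulAut.conj a) ∧ ¬ IsConj s (s * MulAut.conj (a * b)) ∧ ¬ IsConj (s * MulAut.conj a) (s * MulAut.conj (a * b)) ∧ (∀ g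 : G, (s * MulAut.conj a) g = g ↔ g ∈ Cs ⊓ Subgroup.centralizer ({a} : Set G)) ∧ Nonempty (↥(Cs ⊓ Subgroup.centralizer ({a} : Set G)) ≃* Multiplicative (ZMod 2) × Cfsg.PSp 3 (ZMod 2)) ∧ ∃ Csab O : Subgroup G, (∀ g : G, g ∈ Csab ↔ (s * MulAut.conj (a * b)) g = g) ∧ O = (Cfsg.pCore 2 ↥Csab).map Csab.subtype ∧ Cfsg.IsElementaryAbelian 2 O ∧ Nat.card O = 64 ∧ ∃ _ : (O.subgroupOf Csab).Normal, Nonempty (↥Csab ⧸ O.subgroupOf Csab ≃* Cfsg.isometryGroup (ZMod 2) (Cfsg.quadFormMinus 2 (ZMod 2) 1 1)) := by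
  have hd : flipA (gen .d) = gen .d := by rw [flipA_gen]; rfl
  have hi : flipA (gen .i) = gen .i := by rw [flipA_gen]; rfl
  have e1 : c e flipA * MulAut.conj (e.symm (gen .d)) = c e (flipA * MulAut.conj (gen .d)) := by
    rw [map_mul, c_conj]
  have e2 : c e flipA * MulAut.conj (e.symm (gen .d) * e.symm (gen .i)) = c e tt := by
    rw [tt, map_mul (c e), c_conj, map_mul e.symm]
  -- orders of the groups of fixed points
  have k1 : Nat.card (Fixp (c e flipA)) = 1045094400 := by
    rw [card_Fixp]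
    exact Cfsg.Agent.H836.EightMain.card_Cs
  have k2 : Nat.card (Fixp (c e (flipA * MulAut.conj (gen .d)))) = 2903040 := by
    rw [card_Fixp]
    have h : Fixp (flipA * MulAut.conj (gen .d)) = Cs ⊓ centralizer ({gen .d} : Set Spor.Fi22) := by
      ext g
      exact D1 g
    rw [h]
    obtain ⟨f⟩ := D2
    rw [Nat.card_congr f.toEquiv, Nat.card_prod, hcard]
    simp
  have k3 : Nat.card (Fixp (c e tt)) = 3317760 := by
    rw [card_Fixp]
    exact Cfsg.Agent.H833.SixEnd.card_Ct
  refine ⟨c e flipA, e.symm (gen .d), e.symm (gen .i), Fixp (c e flipA), ?_, ?_, fun g => Iff.rfl, ?_,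
    ⟨_, Cfsg.Agent.R01.Fi22Facts.gen_mem .d, rfl⟩, ⟨_, Cfsg.Agent.R01.Fi22Facts.gen_mem .i, rfl⟩,
    fun h => AutFinal.di_ne (e.symm.injective h), ?_, ?_, ?_, ?_, ?_, ?_, ?_, ?_, ?_, ?_⟩
  · rw [MulEquiv.orderOf_eq, orderOf_flipA]
  · intro h
    obtain ⟨x, hx⟩ := c_inner e h
    exact flipA_ne_conj x hx.symm
  · obtain ⟨f⟩ := Cfsg.Agent.H836.EightMain.exists_mulAut_omega (C := Cs) (fun g => mem_Cs)
    have hmap : (Fixp (c e flipA)).map e.toMonoidHom = Cs := by
      ext g
      constructor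
      · rintro ⟨x, hx, rfl⟩
        exact (c_fix e flipA x).1 hx
      · intro hg
        exact ⟨e.symm g, (c_fix e flipA _).2 (by rw [e.apply_symm_apply]; exact hg), e.apply_symm_apply g⟩
    exact ⟨((e.subgroupMap _).trans (MulEquiv.subgroupCongr hmap)).trans f⟩
  · show e.symm (gen .d) * e.symm (gen .i) = e.symm (gen .i) * e.symm (gen .d)
    rw [← map_mul, ← map_mul, AutFinal.di_comm]
  · rw [c_fix, e.apply_symm_apply, hd]
  · rw [c_fix, e.apply_symm_apply, hi]
  · intro t ht hout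
    obtain ⟨t, rfl⟩ := (c e).surjective t
    rw [MulEquiv.orderOf_eq] at ht
    rw [e1, e2]
    have hc : ∀ α β : MulAut Spor.Fi22, IsConj α β → IsConj (c e α) (c e β) := fun α β h =>
      (c e).toMonoidHom.map_isConj h
    rcases Cfsg.Agent.H830.OutInv22.outer_inv t ht (fun h => hout (c_inner' e h)) with h | h | h
    · exact Or.inl (hc _ _ h)
    · exact Or.inr (Or.inl (hc _ _ h))
    · exact Or.inr (Or.inr (hc _ _ h))
  · intro h
    rw [e1] at h
    have := card_eq_of_isConj h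
    rw [k1, k2] at this
    omega
  · intro h
    rw [e2] at h
    have := card_eq_of_isConj h
    rw [k1, k3] at this
    omega
  · intro h
    rw [e1, e2] at h
    have := card_eq_of_isConj h
    rw [k2, k3] at this
    omega
  · intro g
    rw [e1, c_fix, D1, mem_inf, mem_inf, mem_centralizer_singleton_iff, mem_centralizer_singleton_iff]
    have h1 : e g ∈ Cs ↔ g ∈ Fixp (c e flipA) := (c_fix e flipA g).symm
    rw [h1]
    constructor
    · rintro ⟨h2, h3⟩
      refine ⟨h2, e.injective ?_⟩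
      rw [map_mul, map_mul, e.apply_symm_apply]
      exact h3
    · rintro ⟨h2, h3⟩
      refine ⟨h2, ?_⟩
      have := congrArg e h3
      rwa [map_mul, map_mul, e.apply_symm_apply] at this
  · obtain ⟨f⟩ := D2
    have hmap : (Fixp (c e flipA) ⊓ centralizer ({e.symm (gen .d)} : Set G)).map e.toMonoidHom =
        Cs ⊓ centralizer ({gen .d} : Set Spor.Fi22) := by
      ext g
      rw [mem_inf, mem_centralizer_singleton_iff]
      constructor
      · rintro ⟨x, hx, rfl⟩
        obtain ⟨h1, h2⟩ := mem_inf.1 hx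
        refine ⟨(c_fix e flipA x).1 h1, ?_⟩
        rw [mem_centralizer_singleton_iff] at h2
        have := congrArg e h2
        rwa [map_mul, map_mul, e.apply_symm_apply] at this
      · rintro ⟨h1, h2⟩
        refine ⟨e.symm g, mem_inf.2 ⟨(c_fix e flipA _).2 (by rw [e.apply_symm_apply]; exact h1), ?_⟩,
          e.apply_symm_apply g⟩
        rw [mem_centralizer_singleton_iff, ← map_mul, ← map_mul, h2]
    exact ⟨((e.subgroupMap _).trans (MulEquiv.subgroupCongr hmap)).trans f⟩
  · obtain ⟨ρ, hs, hc, h2⟩ := Cfsg.Agent.H833.SixEnd.exists_rho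
    have hmap : (Fixp (c e tt)).map e.toMonoidHom = Ct := by
      ext g
      constructor
      · rintro ⟨x, hx, rfl⟩
        exact (c_fix e tt x).1 hx
      · intro hg
        exact ⟨e.symm g, (c_fix e tt _).2 (by rw [e.apply_symm_apply]; exact hg), e.apply_symm_apply g⟩
    let f : Fixp (c e tt) ≃* Ct := (e.subgroupMap _).trans (MulEquiv.subgroupCongr hmap)
    have hker : ∀ g, g ∈ (ρ.comp f.toMonoidHom).ker ↔ f g ∈ ρ.ker := fun g => Iff.rfl
    obtain ⟨O, hO⟩ := Cfsg.Agent.H833.SixEnd.main_of (Fixp (c e tt)) (ρ.comp f.toMonoidHom)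
      (hs.comp f.surjective) (by
        rw [← hc]
        exact Nat.card_congr
          { toFun := fun g => ⟨f g, (hker _).1 g.2⟩
            invFun := fun g => ⟨f.symm g, (hker _).2 (by rw [f.apply_symm_apply]; exact g.2)⟩
            left_inv := fun g => Subtype.ext (f.symm_apply_apply _)
            right_inv := fun g => Subtype.ext (f.apply_symm_apply _) }) (by
        intro g hg
        apply f.injective
        rw [map_mul, map_one]
        exact h2 _ ((hker g).1 hg))
    exact ⟨Fixp (c e tt), O, fun g => by rw [e2]; exact Iff.rfl, hO⟩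

end Cfsg.Agent.H833.Assemble
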