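import Cfsg.Agent.R08.TetBasic

/-!
# The centralizer of the product of three commuting transpositions (helper833)

`L` a normal set of 3-transpositions without short relations (`TetBasic.Tr`), `a`, `b`, `c` different commuting
members of `L`; if `a`, `b` and `b`, `c` can be interchanged (fixing the third one) then
`C(a b c) / C(a, b, c) ≅ S₃`.
-/

set_option autoImplicit false

namespace Cfsg.Agent.H833.Tri

open Cfsg.Agent.R08.TetBasic

variable {G : Type*} [Group G] {L : Set G}

/-- `t` commutes neither with `a` nor with `b`: `t a b t` interchanges `a` and `b`. -/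
theorem swap_of (h : Tr L) {a b c t : G} (ha : a ∈ L) (hb : b ∈ L) (ht : t ∈ L) (cab : Commute a b)
    (hta : ¬ Commute t a) (htb : ¬ Commute t b) (cac : Commute a c) (cbc : Commute b c) (htc : Commute t c) :
    ∃ g : G, g * a * g⁻¹ = b ∧ g * b * g⁻¹ = a ∧ g * c * g⁻¹ = c := by
  have h1 := h.braid ht ha hta
  have h2 := h.braid ht hb htb
  have tt := h.sq t ht
  have aa := h.sq a ha
  have bb := h.sq b hb
  have key : ∀ a b : G, a ∈ L → b ∈ L → Commute a b → t * a * t = a * t * a → t * b * t = b * t * b →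
      a * a = 1 → b * b = 1 → (t * (a * b) * t) * a * (t * (a * b) * t)⁻¹ = b := by
    intro a b ha hb cab h1 h2 aa bb
    have hi : (t * (a * b) * t)⁻¹ = t * (a * b) * t := by
      rw [mul_inv_rev, mul_inv_rev, mul_inv_rev, h.inv ht, h.inv ha, h.inv hb, ← cab.eq]
      simp only [mul_assoc]
    rw [hi]
    calc t * (a * b) * t * a * (t * (a * b) * t) = t * (b * a) * t * a * (t * (a * b) * t) := by rw [cab.eq]
      _ = t * b * a * (t * a * t) * (a * b) * t := by simp only [mul_assoc]
      _ = t * b * a * (a * t * a) * (a * b) * t := by rw [h1]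
      _ = t * b * (a * a) * t * (a * a) * b * t := by simp only [mul_assoc]
      _ = t * (b * t * b) * t := by rw [aa]; simp only [mul_assoc, one_mul, mul_one]
      _ = t * (t * b * t) * t := by rw [h2]
      _ = (t * t) * b * (t * t) := by simp only [mul_assoc]
      _ = b := by rw [tt, one_mul, mul_one]
  refine ⟨t * (a * b) * t, key a b ha hb cab h1 h2 aa bb, ?_, ?_⟩
  · have := key b a hb ha cab.symm h2 h1 bb aa
    rwa [cab.symm.eq] at this
  · have h3 : Commute (t * (a * b) * t) c := (htc.mul_left (cac.mul_left cbc)).mul_left htc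
    rw [h3.eq, mul_assoc, mul_inv_cancel, mul_one]

theorem main (h : Tr L) {a b c : G} (ha : a ∈ L) (hb : b ∈ L) (hc : c ∈ L) (nab : a ≠ b) (nac : a ≠ c)
    (nbc : b ≠ c) (cab : Commute a b) (cac : Commute a c) (cbc : Commute b c)
    (s1 : ∃ g : G, g * a * g⁻¹ = b ∧ g * b * g⁻¹ = a ∧ g * c * g⁻¹ = c)
    (s2 : ∃ g : G, g * b * g⁻¹ = c ∧ g * c * g⁻¹ = b ∧ g * a * g⁻¹ = a)
    (K C : Subgroup G) (hK : K = Subgroup.centralizer ({a, b, c} : Set G))
    (hC : C = Subgroup.centralizer ({a * b * c} : Set G)) :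
    K ≤ C ∧ ∃ _ : (K.subgroupOf C).Normal, Nonempty (↥C ⧸ K.subgroupOf C ≃* Equiv.Perm (Fin 3)) := by
  classical
  have mK : ∀ g, g ∈ K ↔ g * a = a * g ∧ g * b = b * g ∧ g * c = c * g := by
    intro g
    rw [hK, Subgroup.mem_centralizer_iff]
    constructor
    · intro h
      exact ⟨(h a (by simp)).symm, (h b (by simp)).symm, (h c (by simp)).symm⟩
    · rintro ⟨h1, h2, h3⟩ x hx
      simp only [Set.mem_insert_iff, Set.mem_singleton_iff] at hx
      rcases hx with rfl | rfl | rfl
      · exact h1.symm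
      · exact h2.symm
      · exact h3.symm
  have mC : ∀ g, g ∈ C ↔ g * (a * b * c) = a * b * c * g := by
    intro g
    rw [hC, Subgroup.mem_centralizer_singleton_iff]
  have hle : K ≤ C := by
    intro g hg
    obtain ⟨h1, h2, h3⟩ := (mK g).1 hg
    rw [mC]
    exact ((show Commute g a from h1).mul_right h2).mul_right h3
  let x : Fin 3 → G := ![a, b, c]
  have xinj : Function.Injective x := by
    intro i j hij
    fin_cases i <;> fin_cases j <;> first | rfl | (exfalso; revert hij; simp [x, nab, nac, nbc, nab.symm, nac.symm, nbc.symm])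
  have hxL : ∀ i, x i ∈ L := by
    intro i; fin_cases i
    exacts [ha, hb, hc]
  have hex : ∀ (g : C) (i : Fin 3), ∃ j : Fin 3, x j = g * x i * (g : G)⁻¹ := by
    intro g i
    have hg := (mC g).1 g.2
    have e0 : a * b * c = ((g : G) * a * (g : G)⁻¹) * ((g : G) * b * (g : G)⁻¹) * ((g : G) * c * (g : G)⁻¹) := by
      have : ((g : G) * a * (g : G)⁻¹) * ((g : G) * b * (g : G)⁻¹) * ((g : G) * c * (g : G)⁻¹) =
          g * (a * b * c) * (g : G)⁻¹ := by group
      rw [this, hg, mul_inv_cancel_right]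
    have cm : ∀ x y : G, Commute x y → Commute ((g : G) * x * (g : G)⁻¹) ((g : G) * y * (g : G)⁻¹) := by
      intro x y hxy
      show (g : G) * x * (g : G)⁻¹ * ((g : G) * y * (g : G)⁻¹) = (g : G) * y * (g : G)⁻¹ * ((g : G) * x * (g : G)⁻¹)
      calc _ = (g : G) * (x * y) * (g : G)⁻¹ := by group
        _ = (g : G) * (y * x) * (g : G)⁻¹ := by rw [hxy.eq]
        _ = _ := by group
    have cn : ∀ x y : G, x ≠ y → (g : G) * x * (g : G)⁻¹ ≠ (g : G) * y * (g : G)⁻¹ := by
      intro x y hxy h1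
      exact hxy (mul_left_cancel (mul_right_cancel h1))
    have key : ∀ y : G, (y = a ∨ y = b ∨ y = c) → ∃ j : Fin 3, x j = y := by
      rintro y (rfl | rfl | rfl)
      exacts [⟨0, rfl⟩, ⟨1, rfl⟩, ⟨2, rfl⟩]
    have key2 : ∀ y : G, (y = g * a * (g : G)⁻¹ ∨ y = g * b * (g : G)⁻¹ ∨ y = g * c * (g : G)⁻¹) →
        (y = a ∨ y = b ∨ y = c) := by
      rintro y (hy | hy | hy)
      · rw [hy]
        exact tri_mem h ha hb hc (h.conj g a ha) (h.conj g b hb) (h.conj g c hc) cab cac cbc nab nac nbc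
          (cm _ _ cab) (cm _ _ cac) (cm _ _ cbc) (cn _ _ nab) (cn _ _ nac) (cn _ _ nbc) e0
      · rw [hy]
        refine tri_mem h ha hb hc (h.conj g b hb) (h.conj g a ha) (h.conj g c hc) cab cac cbc nab nac nbc
          (cm _ _ cab.symm) (cm _ _ cbc) (cm _ _ cac) (cn _ _ nab.symm) (cn _ _ nbc) (cn _ _ nac) ?_
        rw [e0, (cm _ _ cab).eq]
      · rw [hy]
        refine tri_mem h ha hb hc (h.conj g c hc) (h.conj g a ha) (h.conj g b hb) cab cac cbc nab nac nbc
          (cm _ _ cac.symm) (cm _ _ cbc.symm) (cm _ _ cab) (cn _ _ nac.symm) (cn _ _ nbc.symm) (cn _ _ nab) ?_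
        rw [e0, mul_assoc (_ * _ * _), (cm _ _ cbc).eq, ← mul_assoc, (cm _ _ cac).eq]
    apply key
    apply key2
    have h3 : ∀ i : Fin 3, i = 0 ∨ i = 1 ∨ i = 2 := by decide
    rcases h3 i with rfl | rfl | rfl
    exacts [Or.inl rfl, Or.inr (Or.inl rfl), Or.inr (Or.inr rfl)]
  choose p hp using hex
  have pmul : ∀ (g k : C) (i : Fin 3), p (g * k) i = p g (p k i) := by
    intro g k i
    apply xinj
    rw [hp, hp, hp]
    push_cast
    group
  have pone : ∀ i, p 1 i = i := by
    intro i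
    apply xinj
    rw [hp]
    simp
  let ρ : C →* Equiv.Perm (Fin 3) :=
    { toFun := fun g => ⟨p g, p g⁻¹, fun i => by rw [← pmul, inv_mul_cancel, pone],
        fun i => by rw [← pmul, mul_inv_cancel, pone]⟩
      map_one' := Equiv.ext pone
      map_mul' := fun g k => Equiv.ext (pmul g k) }
  have hρ : ∀ (g : C) (i : Fin 3), x (ρ g i) = g * x i * (g : G)⁻¹ := hp
  have hker : ρ.ker = K.subgroupOf C := by
    ext g
    rw [MonoidHom.mem_ker, Subgroup.mem_subgroupOf, mK]
    have hi : ∀ i, ρ g i = i ↔ (g : G) * x i = x i * g := by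
      intro i
      rw [← xinj.eq_iff, hρ, mul_inv_eq_iff_eq_mul]
    constructor
    · intro h1
      have h2 : ∀ i, ρ g i = i := fun i => by rw [h1]; rfl
      exact ⟨(hi 0).1 (h2 0), (hi 1).1 (h2 1), (hi 2).1 (h2 2)⟩
    · rintro ⟨h1, h2, h3⟩
      apply Equiv.ext
      intro i
      apply (hi i).2
      fin_cases i
      exacts [h1, h2, h3]
  have hsurj : Function.Surjective ρ := by
    rw [← MonoidHom.range_eq_top]
    have hmem : ∀ (g : G), g * a * g⁻¹ ∈ ({a, b, c} : Set G) → True := fun _ _ => trivial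
    have m1 : Equiv.swap (0 : Fin 3) 1 ∈ ρ.range := by
      obtain ⟨g, g1, g2, g3⟩ := s1
      have hg : g ∈ C := by
        rw [mC]
        have : g * (a * b * c) * g⁻¹ = a * b * c := by
          calc g * (a * b * c) * g⁻¹ = (g * a * g⁻¹) * (g * b * g⁻¹) * (g * c * g⁻¹) := by group
            _ = a * b * c := by rw [g1, g2, g3, cab.eq]
        exact mul_inv_eq_iff_eq_mul.1 this
      refine ⟨⟨g, hg⟩, Equiv.ext fun i => xinj ?_⟩
      rw [hρ]
      fin_cases i
      · show g * a * g⁻¹ = x (Equiv.swap 0 1 0)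
        rw [Equiv.swap_apply_left]; exact g1
      · show g * b * g⁻¹ = x (Equiv.swap 0 1 1)
        rw [Equiv.swap_apply_right]; exact g2
      · show g * c * g⁻¹ = x (Equiv.swap 0 1 2)
        rw [Equiv.swap_apply_of_ne_of_ne (by decide) (by decide)]; exact g3
    have m2 : Equiv.swap (1 : Fin 3) 2 ∈ ρ.range := by
      obtain ⟨g, g1, g2, g3⟩ := s2
      have hg : g ∈ C := by
        rw [mC]
        have : g * (a * b * c) * g⁻¹ = a * b * c := by
          calc g * (a * b * c) * g⁻¹ = (g * a * g⁻¹) * ((g * b * g⁻¹) * (g * c * g⁻¹)) := by group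
            _ = a * b * c := by rw [g1, g2, g3, ← cbc.eq, mul_assoc]
        exact mul_inv_eq_iff_eq_mul.1 this
      refine ⟨⟨g, hg⟩, Equiv.ext fun i => xinj ?_⟩
      rw [hρ]
      fin_cases i
      · show g * a * g⁻¹ = x (Equiv.swap 1 2 0)
        rw [Equiv.swap_apply_of_ne_of_ne (by decide) (by decide)]; exact g3
      · show g * b * g⁻¹ = x (Equiv.swap 1 2 1)
        rw [Equiv.swap_apply_left]; exact g1
      · show g * c * g⁻¹ = x (Equiv.swap 1 2 2)
        rw [Equiv.swap_apply_right]; exact g2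
    rw [eq_top_iff]
    intro σ _
    have h3 : ∀ σ : Equiv.Perm (Fin 3), σ = 1 ∨ σ = Equiv.swap 0 1 ∨ σ = Equiv.swap 1 2 ∨
        σ = Equiv.swap 0 1 * Equiv.swap 1 2 ∨ σ = Equiv.swap 1 2 * Equiv.swap 0 1 ∨
        σ = Equiv.swap 0 1 * Equiv.swap 1 2 * Equiv.swap 0 1 := by decide
    rcases h3 σ with rfl | rfl | rfl | rfl | rfl | rfl
    · exact one_mem _
    · exact m1
    · exact m2
    · exact mul_mem m1 m2
    · exact mul_mem m2 m1
    · exact mul_mem (mul_mem m1 m2) m1
  have hn : (K.subgroupOf C).Normal := by rw [← hker]; infer_instance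
  refine ⟨hle, hn, ⟨?_⟩⟩
  · exact (QuotientGroup.quotientMulEquivOfEq hker.symm).trans
      (QuotientGroup.quotientKerEquivOfSurjective ρ hsurj)

end Cfsg.Agent.H833.Tri
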