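import Cfsg.Agent.R08.TetBasic
import Cfsg.Agent.H831.Short
import Cfsg.Agent.H833.Tri

/-!
# The types `T7`, `T8` satisfy `TetBasic.Tr` (helper833)

* `tr_of_noRel` : a normal set of 3-transpositions without relations of length at most six is a `Tr`;
* `tr_seven`, `tr_eight`;
* `exists_swap_seven` : in type `T7` two of three commuting members are interchanged by an element centralizing the third.
-/

set_option autoImplicit false

namespace Cfsg.Agent.H833.TrOf

open Cfsg Cfsg.Agent.Fischer480.Defs
open Cfsg.Agent.R08.TetBasic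
open Cfsg.Agent.H831.Short (NoRel noRel_six noRel_seven noRel_eight)

universe u

variable {G : Type u} [Group G] {D : Set G}

theorem tr_of_noRel (hT : IsThreeTranspositionSet D) (hc : ∀ g : G, ∀ a ∈ D, g * a * g⁻¹ ∈ D)
    (hN : NoRel D 6) : Tr D where
  sq a ha := Cfsg.Agent.SporadicB.ThreeTrans.mul_self hT ha
  conj := hc
  three a ha b hb := Cfsg.Agent.SporadicB.ThreeTrans.commute_or_braid hT ha hb
  four a ha b hb c hc d hd nab nac nad nbc nbd ncd cab cac cad cbc cbd ccd h := by
    have h1 : [a, b, c, d] = [] := by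
      apply hN
      · simp [nab, nac, nad, nbc, nbd, ncd]
      · simp [ha, hb, hc, hd]
      · simp [cab, cac, cad, cbc, cbd, ccd, cab.symm, cac.symm, cad.symm, cbc.symm, cbd.symm, ccd.symm]
      · simp only [List.prod_cons, List.prod_nil, mul_one]
        have h2 : c * c = 1 := Cfsg.Agent.SporadicB.ThreeTrans.mul_self hT hc
        have h3 : d * d = 1 := Cfsg.Agent.SporadicB.ThreeTrans.mul_self hT hd
        calc a * (b * (c * d)) = (a * b) * (c * d) := by rw [mul_assoc]
          _ = (c * d) * (c * d) := by rw [h]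
          _ = c * (d * c) * d := by simp only [mul_assoc]
          _ = c * (c * d) * d := by rw [ccd.eq]
          _ = (c * c) * (d * d) := by simp only [mul_assoc]
          _ = 1 := by rw [h2, h3, one_mul]
      · simp
    simp at h1
  six a ha b hb c hc d hd e he f hf nab nac nbc nde ndf nef nad nae naf nbd nbe nbf ncd nce ncf
      cab cac cbc cde cdf cef cad cae caf cbd cbe cbf ccd cce ccf h := by
    have h1 : [a, b, c, d, e, f] = [] := by
      apply hN
      · simp [nab, nac, nbc, nde, ndf, nef, nad, nae, naf, nbd, nbe, nbf, ncd, nce, ncf]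
      · simp [ha, hb, hc, hd, he, hf]
      · simp [cab, cac, cbc, cde, cdf, cef, cad, cae, caf, cbd, cbe, cbf, ccd, cce, ccf,
          cab.symm, cac.symm, cbc.symm, cde.symm, cdf.symm, cef.symm, cad.symm, cae.symm, caf.symm, cbd.symm,
          cbe.symm, cbf.symm, ccd.symm, cce.symm, ccf.symm]
      · simp only [List.prod_cons, List.prod_nil, mul_one]
        have h2 : d * d = 1 := Cfsg.Agent.SporadicB.ThreeTrans.mul_self hT hd
        have h3 : e * e = 1 := Cfsg.Agent.SporadicB.ThreeTrans.mul_self hT he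
        have h4 : f * f = 1 := Cfsg.Agent.SporadicB.ThreeTrans.mul_self hT hf
        calc a * (b * (c * (d * (e * f)))) = (a * b * c) * (d * (e * f)) := by simp only [mul_assoc]
          _ = d * e * (f * d) * e * f := by rw [h]; simp only [mul_assoc]
          _ = d * (e * d) * (f * e) * f := by rw [← cdf.eq]; simp only [mul_assoc]
          _ = (d * d) * (e * e) * (f * f) := by rw [← cde.eq, ← cef.eq]; simp only [mul_assoc]
          _ = 1 := by rw [h2, h3, h4, one_mul, one_mul]
      · simp
    simp at h1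

theorem conj_mem (F : FGroup D) (g : G) {a : G} (ha : a ∈ D) : g * a * g⁻¹ ∈ D := by
  obtain ⟨d, hd, hD⟩ := F.cls.2.1
  rw [hD] at ha ⊢
  exact (show IsConj d a from ha).trans (isConj_iff.2 ⟨g, rfl⟩)

theorem tr_seven (F : FGroup D) (h : IsT7 D) : Tr D :=
  tr_of_noRel F.cls.1 (fun g _ ha => conj_mem F g ha) (noRel_seven F.cls.1 h)

theorem tr_eight (F : FGroup D) (h : IsT8 D) : Tr D :=
  tr_of_noRel F.cls.1 (fun g _ ha => conj_mem F g ha) ((noRel_eight F.cls.1 h).mono (by norm_num))

/-- In type `T6` two members never exhaust, with their neighbours, the whole set. -/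
theorem exists_ncomm_six [Finite G] {E : Set G} (h : IsT6 E) {a b : G} (ha : a ∈ E) (hb : b ∈ E) :
    ∃ t ∈ E, ¬ Commute t a ∧ ¬ Commute t b := by
  by_contra hcon
  push Not at hcon
  have na : (Loc E a).ncard = 693 := (Cfsg.Agent.TSp.UCount.numbers_six (h.2.1 a ha)).1
  have nb : (Loc E b).ncard = 693 := (Cfsg.Agent.TSp.UCount.numbers_six (h.2.1 b hb)).1
  have hsub : E ⊆ (Loc E a ∪ {a}) ∪ (Loc E b ∪ {b}) := by
    intro t ht
    by_cases h1 : Commute t a
    · left
      by_cases h2 : t = a
      · right; exact h2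
      · left; exact ⟨ht, h2, h1.symm⟩
    · right
      have h3 := hcon t ht h1
      by_cases h2 : t = b
      · right; exact h2
      · left; exact ⟨ht, h2, h3.symm⟩
  have h1 := Set.ncard_le_ncard hsub (Set.toFinite _)
  have h2 := Set.ncard_union_le (Loc E a ∪ {a}) (Loc E b ∪ {b})
  have h3 := Set.ncard_union_le (Loc E a) {a}
  have h4 := Set.ncard_union_le (Loc E b) {b}
  rw [Set.ncard_singleton] at h3 h4
  have h5 := h.1
  omega

/-- In type `T7` two of three commuting members are interchanged by an element centralizing the third. -/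
theorem exists_swap_seven [Finite G] (F : FGroup D) (h : IsT7 D) {a b c : G} (ha : a ∈ D) (hb : b ∈ D)
    (hc : c ∈ D) (nac : a ≠ c) (nbc : b ≠ c) (cab : Commute a b) (cac : Commute a c) (cbc : Commute b c) :
    ∃ g : G, g * a * g⁻¹ = b ∧ g * b * g⁻¹ = a ∧ g * c * g⁻¹ = c := by
  obtain ⟨t, ht, h1, h2⟩ := exists_ncomm_six (h.2.1 c hc) (a := a) (b := b) ⟨ha, nac, cac.symm⟩
    ⟨hb, nbc, cbc.symm⟩
  exact Cfsg.Agent.H833.Tri.swap_of (tr_seven F h) ha hb ht.1 cab h1 h2 cac cbc ht.2.2.symm

end Cfsg.Agent.H833.TrOf
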